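import Cfsg.Agent.Lib.Chev.Aut.Out

/-! The node permutations that occur. -/
set_option autoImplicit false
set_option maxRecDepth 100000
open Cfsg.Lie
open scoped Matrix MatrixGroups

namespace CfsgLib.Chev.Aut

open CfsgLib.Chev CfsgLib.Chev.Checks CfsgLib.Chev.Basic

variable {D : ChevalleyDatum} {F : Type*} [Field F]

/-- the identity image list -/
def idImgs (D : ChevalleyDatum) : List ℕ := List.range D.rank

theorem imgs_one : imgs (1 : Equiv.Perm (Fin D.rank)) = idImgs D := by
  refine List.ext_getElem (by simp [imgs, idImgs]) fun n h1 h2 => ?_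
  simp [imgs, idImgs]

theorem range_eq_bot [Finite F] (hD : D ∈ dataList)
    (h : ∀ l ∈ symList D, keepOK D l = true ∨ ringChar F = ratio D ∨ (ratio D = 3 ∧ Nat.card F = 2) → l = idImgs D) :
    Nat.card ↥(permHom (F := F) hD).range = 1 := by
  have : (permHom (F := F) hD).range = ⊥ := by
    refine le_antisymm ?_ bot_le
    rintro _ ⟨θ, rfl⟩
    rw [Subgroup.mem_bot]
    refine imgs_injective ((h _ (sym_mem (permHom_symmetry hD θ)) (permHom_cases hD θ)).trans imgs_one.symm)
  rw [this]; simp

theorem range_le_two [Finite F] (hD : D ∈ dataList) (h : (symList D).length ≤ 2) :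
    Nat.card ↥(permHom (F := F) hD).range ≤ 2 := by
  classical
  let f : ↥(permHom (F := F) hD).range → {l // l ∈ (symList D).toFinset} := fun π =>
    ⟨imgs π.1, List.mem_toFinset.2 (by
      obtain ⟨θ, hθ⟩ := π.2
      rw [← hθ]; exact sym_mem (permHom_symmetry hD θ))⟩
  have hinj : Function.Injective f := fun a b e => Subtype.ext (imgs_injective (congrArg Subtype.val e))
  refine (Nat.card_le_card_of_injective f hinj).trans ?_
  rw [Nat.card_eq_finsetCard]
  exact (List.toFinset_card_le _).trans h

theorem range_eq_two [Finite F] (hD : D ∈ dataList) (h : (symList D).length ≤ 2)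
    (hne : ∃ (φ : MulAut ↥(D.group F)) (π : Equiv.Perm (Fin D.rank)), Std hD φ π ∧ π ≠ 1) :
    Nat.card ↥(permHom (F := F) hD).range = 2 := by
  obtain ⟨φ, π, hs, hπ⟩ := hne
  refine le_antisymm (range_le_two hD h) ?_
  have : Nontrivial ↥(permHom (F := F) hD).range :=
    ⟨⟨π, φ, perm_eq_std hs⟩, 1, fun e => hπ (congrArg Subtype.val e)⟩
  exact Finite.one_lt_card

end CfsgLib.Chev.Aut
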