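import Cfsg.Agent.Lib.Chev.Aut.OutCard
import Cfsg.Agent.Lib.Chev.Aut.GraphExist

/-! The shape of the outer automorphism group. -/
set_option autoImplicit false
set_option maxRecDepth 100000
open Cfsg.Lie
open scoped Matrix MatrixGroups

namespace CfsgLib.Chev.Aut

open CfsgLib.Chev CfsgLib.Chev.Checks CfsgLib.Chev.Basic

variable {D : ChevalleyDatum} {F : Type*} [Field F]

theorem graph_diag (hD : D ∈ dataList) {g : MulAut ↥(D.group F)} (hg : D.IsGraphAut g) (c : Fin D.rank → Fˣ) :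
    ∃ c' : Fin D.rank → Fˣ, g * diagHom hD F c = diagHom hD F c' * g := by
  obtain ⟨π, -, h⟩ := (isGraph_iff hD g).1 hg
  refine ⟨fun j => c (π⁻¹ j) ^ D.graphExp (ringChar F) (π⁻¹ j : Fin D.rank) j, aut_ext hD fun i t => ?_⟩
  simp only [MulAut.mul_apply, diagHom_simple, diagHom_ns, (h i _).1, (h i _).2]
  simp [mul_pow]

theorem field_diag (hD : D ∈ dataList) (σ : F ≃+* F) (c : Fin D.rank → Fˣ) :
    ∃ c' : Fin D.rank → Fˣ, fieldHom hD F σ * diagHom hD F c = diagHom hD F c' * fieldHom hD F σ := by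
  refine ⟨fun j => Units.map σ.toRingHom.toMonoidHom (c j), aut_ext hD fun i t => ?_⟩
  simp [MulAut.mul_apply, diagHom_simple, diagHom_ns, fieldHom_simple, fieldHom_ns]

theorem diag_image_normal [Finite F] (hD : D ∈ dataList) :
    ((diagHom hD F).range.map (QuotientGroup.mk' (Cfsg.Inn ↥(D.group F)))).Normal := by
  refine ⟨fun n hn y => ?_⟩
  obtain ⟨θ, rfl⟩ := QuotientGroup.mk'_surjective _ y
  obtain ⟨x, c, g, τ, hg, rfl⟩ := decomposition hD θ
  obtain ⟨_, ⟨e, rfl⟩, rfl⟩ := hn
  obtain ⟨e₁, h₁⟩ := field_diag hD τ e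
  obtain ⟨e₂, h₂⟩ := graph_diag hD hg e₁
  have hx : QuotientGroup.mk' (Cfsg.Inn ↥(D.group F)) (MulAut.conj x) = 1 :=
    (QuotientGroup.eq_one_iff _).2 ⟨x, rfl⟩
  refine ⟨diagHom hD F (c * e₂ * c⁻¹), ⟨_, rfl⟩, ?_⟩
  rw [map_mul (QuotientGroup.mk' _), hx, one_mul, ← map_inv, ← map_mul, ← map_mul]
  congr 1
  calc diagHom hD F (c * e₂ * c⁻¹)
      = diagHom hD F c * (diagHom hD F e₂ * g) * g⁻¹ * (diagHom hD F c)⁻¹ := by
        rw [map_mul, map_mul, map_inv]; group
    _ = diagHom hD F c * g * (diagHom hD F e₁ * fieldHom hD F τ) * (fieldHom hD F τ)⁻¹ * g⁻¹ *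
        (diagHom hD F c)⁻¹ := by rw [← h₂]; group
    _ = _ := by rw [← h₁]; group

theorem closure_diag (hD : D ∈ dataList) :
    Subgroup.closure {φ : MulAut ↥(D.group F) | D.IsDiagonalAut φ} = (diagHom hD F).range := by
  rw [show {φ : MulAut ↥(D.group F) | D.IsDiagonalAut φ} = ((diagHom hD F).range : Set (MulAut ↥(D.group F))) from
    Set.ext fun φ => isDiag_iff hD φ]
  exact Subgroup.closure_eq _

theorem closure_field (hD : D ∈ dataList) :
    Subgroup.closure {φ : MulAut ↥(D.group F) | D.IsFieldAut φ} = (fieldHom hD F).range := by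
  rw [show {φ : MulAut ↥(D.group F) | D.IsFieldAut φ} = ((fieldHom hD F).range : Set (MulAut ↥(D.group F))) from
    Set.ext fun φ => isField_iff hD φ]
  exact Subgroup.closure_eq _

theorem sup_image [Finite F] (hD : D ∈ dataList) :
    (permHom (F := F) hD).ker.map (QuotientGroup.mk' (Cfsg.Inn ↥(D.group F))) =
      (diagHom hD F).range.map (QuotientGroup.mk' (Cfsg.Inn ↥(D.group F))) ⊔
        (fieldHom hD F).range.map (QuotientGroup.mk' (Cfsg.Inn ↥(D.group F))) := by
  rw [ker_eq, Subgroup.map_sup, Subgroup.map_sup, QuotientGroup.map_mk'_self, bot_sup_eq]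

theorem field_image_cyclic [Finite F] (hD : D ∈ dataList) :
    IsCyclic ↥((fieldHom hD F).range.map (QuotientGroup.mk' (Cfsg.Inn ↥(D.group F)))) := by
  classical
  haveI := Fintype.ofFinite F
  obtain ⟨p, hp⟩ := CharP.exists F
  haveI : Fact p.Prime := ⟨CharP.char_is_prime F p⟩
  obtain ⟨n, -, hn⟩ := FiniteField.card F p
  obtain ⟨e⟩ := galois_equiv (F := F) hn
  haveI : IsCyclic (F ≃+* F) := isCyclic_of_surjective e.symm e.symm.surjective
  rw [← MonoidHom.range_comp]
  exact isCyclic_of_surjective _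
    (((QuotientGroup.mk' (Cfsg.Inn ↥(D.group F))).comp (fieldHom hD F)).rangeRestrict_surjective)

theorem diag_image_comm (hD : D ∈ dataList) :
    IsMulCommutative ↥((diagHom hD F).range.map (QuotientGroup.mk' (Cfsg.Inn ↥(D.group F)))) := by
  refine ⟨⟨fun a b => Subtype.ext ?_⟩⟩
  obtain ⟨_, ⟨c, rfl⟩, hc⟩ := a.2
  obtain ⟨_, ⟨c', rfl⟩, hc'⟩ := b.2
  show (a : Cfsg.Out ↥(D.group F)) * b = b * a
  rw [← hc, ← hc', ← map_mul, ← map_mul, ← map_mul, ← map_mul, mul_comm c c']

theorem index_image [Finite F] (hD : D ∈ dataList) :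
    ((permHom (F := F) hD).ker.map (QuotientGroup.mk' (Cfsg.Inn ↥(D.group F)))).index =
      Nat.card ↥(permHom (F := F) hD).range := by
  rw [Subgroup.index_map_eq _ (QuotientGroup.mk'_surjective _) (by
    rw [QuotientGroup.ker_mk', ker_eq]; exact le_sup_left), Subgroup.index_ker]

theorem quotient_shape [Finite F] (hD : D ∈ dataList) :
    Nat.card ↥(permHom (F := F) hD).range = 1 ∨ Nat.card ↥(permHom (F := F) hD).range = 2 ∨
      (Nat.card ↥(permHom (F := F) hD).range = 6 ∧ ∃ θ θ' : MulAut ↥(D.group F),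
        permHom hD θ * permHom hD θ' ≠ permHom hD θ' * permHom hD θ) := by
  classical
  by_cases h2 : (symList D).length ≤ 2
  · have := range_le_two (F := F) hD h2
    have : 0 < Nat.card ↥(permHom (F := F) hD).range := Nat.card_pos
    omega
  · have hD4 : D = chevD4 := by
      have key : ∀ D' ∈ dataList, D' = chevD4 ∨ (symList D').length ≤ 2 := by
        intro D' hD'
        simp only [dataList, List.mem_cons, List.not_mem_nil, or_false] at hD'
        rcases hD' with rfl | rfl | rfl | rfl | rfl | rfl | rfl <;>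
          first | exact Or.inl rfl | exact Or.inr (by decide +kernel)
      exact (key D hD).resolve_right h2
    subst hD4
    obtain ⟨φ, hφ⟩ := exists_std (F := F) hD GData.d4a 1 0 (by simp) (fun h => absurd h (lt_irrefl 1))
      GData.d4a_ok.1 GData.d4a_ok.2 (Equiv.swap (0 : Fin 4) (2 : Fin 4)) (by decide +kernel)
    obtain ⟨ψ, hψ⟩ := exists_std (F := F) hD GData.d4b 1 0 (by simp) (fun h => absurd h (lt_irrefl 1))
      GData.d4b_ok.1 GData.d4b_ok.2 (Equiv.swap (2 : Fin 4) (3 : Fin 4)) (by decide +kernel)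
    refine Or.inr (Or.inr ⟨?_, φ, ψ, ?_⟩)
    swap
    · show perm hD φ * perm hD ψ ≠ perm hD ψ * perm hD φ
      rw [perm_eq_std hφ, perm_eq_std hψ]
      decide +kernel
    set R := (permHom (F := F) hD).range
    have ha : (Equiv.swap (0 : Fin 4) (2 : Fin 4) : Equiv.Perm (Fin chevD4.rank)) ∈ R := ⟨φ, perm_eq_std hφ⟩
    have hb : (Equiv.swap (2 : Fin 4) (3 : Fin 4) : Equiv.Perm (Fin chevD4.rank)) ∈ R := ⟨ψ, perm_eq_std hψ⟩
    refine le_antisymm ?_ ?_
    · let f : ↥R → {l // l ∈ (symList chevD4).toFinset} := fun π => ⟨imgs π.1, List.mem_toFinset.2 (by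
        obtain ⟨θ, hθ⟩ := π.2
        rw [← hθ]; exact sym_mem (permHom_symmetry hD θ))⟩
      refine (Nat.card_le_card_of_injective f fun a b e =>
        Subtype.ext (imgs_injective (congrArg Subtype.val e))).trans ?_
      rw [Nat.card_eq_finsetCard]
      decide +kernel
    · let a : Equiv.Perm (Fin chevD4.rank) := Equiv.swap (0 : Fin 4) (2 : Fin 4)
      let b : Equiv.Perm (Fin chevD4.rank) := Equiv.swap (2 : Fin 4) (3 : Fin 4)
      let S : Finset (Equiv.Perm (Fin chevD4.rank)) := {1, a, b, a * b, b * a, a * b * a}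
      have hS : ∀ z ∈ S, z ∈ R := by
        intro z hz
        simp only [S, Finset.mem_insert, Finset.mem_singleton] at hz
        rcases hz with rfl | rfl | rfl | rfl | rfl | rfl
        exacts [one_mem _, ha, hb, mul_mem ha hb, mul_mem hb ha, mul_mem (mul_mem ha hb) ha]
      have hcard : S.card = 6 := by decide +kernel
      rw [← hcard, ← Nat.card_eq_finsetCard]
      exact Nat.card_le_card_of_injective (fun z : {z // z ∈ S} => (⟨z.1, hS _ z.2⟩ : ↥R))
        fun u v e => Subtype.ext (by simpa using congrArg Subtype.val e)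

theorem out_structure [Finite F] (hD : D ∈ dataList) (Dbar Fbar : Subgroup (Cfsg.Out ↥(D.group F)))
    (hDbar : Dbar = (Subgroup.closure {φ : MulAut ↥(D.group F) | D.IsDiagonalAut φ}).map
      (QuotientGroup.mk' (Cfsg.Inn ↥(D.group F))))
    (hFbar : Fbar = (Subgroup.closure {φ : MulAut ↥(D.group F) | D.IsFieldAut φ}).map
      (QuotientGroup.mk' (Cfsg.Inn ↥(D.group F)))) :
    Dbar.Normal ∧ IsMulCommutative ↥Dbar ∧ IsCyclic ↥Fbar ∧ (Dbar ⊔ Fbar).Normal ∧
      ((Dbar ⊔ Fbar).index = 1 ∨ (Dbar ⊔ Fbar).index = 2 ∨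
        ((Dbar ⊔ Fbar).index = 6 ∧ ¬ commutator (Cfsg.Out ↥(D.group F)) ≤ Dbar ⊔ Fbar)) := by
  rw [closure_diag hD] at hDbar
  rw [closure_field hD] at hFbar
  subst hDbar hFbar
  have hK := sup_image (F := F) hD
  refine ⟨diag_image_normal hD, diag_image_comm hD, field_image_cyclic hD, ?_, ?_⟩
  · rw [← hK]
    exact Subgroup.Normal.map inferInstance _ (QuotientGroup.mk'_surjective _)
  · rw [← hK, index_image]
    rcases quotient_shape (F := F) hD with h | h | ⟨h, θ, θ', hne⟩
    · exact Or.inl h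
    · exact Or.inr (Or.inl h)
    · refine Or.inr (Or.inr ⟨h, fun hle => hne ?_⟩)
      have hm := hle (Subgroup.commutator_mem_commutator (Subgroup.mem_top (QuotientGroup.mk' (Cfsg.Inn ↥(D.group F)) θ))
        (Subgroup.mem_top (QuotientGroup.mk' (Cfsg.Inn ↥(D.group F)) θ')))
      rw [← map_commutatorElement, ← Subgroup.mem_comap, Subgroup.comap_map_eq_self (by
        rw [QuotientGroup.ker_mk', ker_eq]; exact le_sup_left), MonoidHom.mem_ker, map_commutatorElement,
        commutatorElement_eq_one_iff_mul_comm] at hm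
      exact hm

end CfsgLib.Chev.Aut
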