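import Cfsg.Agent.Lib.Chev.Aut.Kinds

/-! A graph automorphism on all root elements. -/
set_option autoImplicit false
set_option maxRecDepth 100000
open Cfsg.Lie
open scoped Matrix MatrixGroups

namespace CfsgLib.Chev.Aut

open CfsgLib.Chev CfsgLib.Chev.Checks CfsgLib.Chev.Basic

variable {D : ChevalleyDatum} {F : Type*} [Field F]

/-- `permRoot` from an image list -/
def permRootL (D : ChevalleyDatum) (l : List ℕ) (r : ℕ) : ℕ :=
  ((List.range D.nroots).find? fun s => (List.range D.rank).all fun i =>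
      (D.coroot.getD s #[]).getD (l.getD i 0) 0 == (D.coroot.getD r #[]).getD i 0).getD r

theorem permRootL_eq (π : Equiv.Perm (Fin D.rank)) (r : ℕ) : permRootL D (imgs π) r = D.permRoot π r := by
  unfold permRootL ChevalleyDatum.permRoot
  congr 2
  funext s
  rw [Bool.eq_iff_iff, List.all_eq_true, List.all_eq_true]
  constructor
  · intro h i _
    have := h i.val (List.mem_range.2 i.2)
    rwa [show (imgs π).getD i.val 0 = (π i).val by rw [List.getD_eq_getElem _ _ (by simp [imgs])]; simp [imgs]] at this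
  · intro h i hi
    have := h ⟨i, List.mem_range.1 hi⟩ (List.mem_finRange _)
    rwa [show (imgs π).getD i 0 = (π ⟨i, List.mem_range.1 hi⟩).val by
      rw [List.getD_eq_getElem _ _ (by simp [imgs, List.mem_range.1 hi])]; simp [imgs]]

def permRootOK (D : ChevalleyDatum) : Bool :=
  (symList D).all fun l => (List.range D.rank).all fun i =>
    (permRootL D l (D.simple i) == D.simple (l.getD i 0)) && (List.range D.nroots).all fun r =>
      D.reflectRoot (l.getD i 0) (permRootL D l r) == permRootL D l (D.reflectRoot i r) &&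
        decide (permRootL D l r < D.nroots)

theorem graph_all_roots (hD' : D ∈ [chevD4, chevE6]) (π : Equiv.Perm (Fin D.rank)) (hπ : D.IsDiagramSymmetry π)
    (hD : D ∈ dataList) (φ : MulAut ↥(D.group F))
    (hφ : ∀ (i : Fin D.rank) (t : F), φ (xe hD (D.simple i) t) = xe hD (D.simple (π i)) t ∧
      φ (xe hD (ns D i) t) = xe hD (ns D (π i)) t) {r : ℕ} (hr : r < D.nroots) :
    ∃ ε : F, (ε = 1 ∨ ε = -1) ∧ ∀ t : F, φ (xe hD r t) = xe hD (D.permRoot π r) (ε * t) := by
  have hok : permRootOK D = true := by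
    simp only [List.mem_cons, List.not_mem_nil, or_false] at hD'
    rcases hD' with rfl | rfl <;> decide +kernel
  have hl : imgs π ∈ symList D := mem_symList π fun i j hij => by rw [hπ i j hij]
  have hi_img : ∀ i : Fin D.rank, (imgs π).getD i.val 0 = (π i).val := fun i => by
    rw [List.getD_eq_getElem _ _ (by simp [imgs])]; simp [imgs]
  simp only [permRootOK, List.all_eq_true, List.mem_range, Bool.and_eq_true, beq_iff_eq, decide_eq_true_eq] at hok
  have hnn : ∀ i : Fin D.rank, φ (niG hD F i) = niG hD F (π i) := fun i => by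
    have e : ∀ k : ℕ, niG hD F k = xe hD (D.simple k) (1 : F) * xe hD (ns D k) (-(1 : F)⁻¹) * xe hD (D.simple k) (1 : F) :=
      fun k => Subtype.ext rfl
    rw [e, e, map_mul, map_mul, (hφ i 1).1, (hφ i _).2]
  refine Rel.root_induction hD (P := fun r => ∃ ε : F, (ε = 1 ∨ ε = -1) ∧
    ∀ t : F, φ (xe hD r t) = xe hD (D.permRoot π r) (ε * t)) (fun a ha => ?_) (fun i s hi hs ih => ?_) hr
  · refine ⟨1, Or.inl rfl, fun t => ?_⟩
    have := (hok _ hl a ha).1
    rw [permRootL_eq, hi_img ⟨a, ha⟩] at this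
    rw [one_mul, this]
    exact (hφ ⟨a, ha⟩ t).1
  · obtain ⟨ε, hε, h⟩ := ih
    have hw := Rel.reflectRoot_lt hD hi hs
    have hstep := (hok _ hl i hi).2 _ hw
    rw [permRootL_eq, permRootL_eq, hi_img ⟨i, hi⟩, Rel.reflect_invol hD hi hs] at hstep
    set η := (Rel.eta hD i (D.reflectRoot i s) : F)
    set η' := (Rel.eta hD (π ⟨i, hi⟩) (D.permRoot π (D.reflectRoot i s)) : F)
    refine ⟨η' * (ε * η), ?_, fun t => ?_⟩
    · rcases hε with rfl | rfl <;> rcases Rel.eta_cases hD i (D.reflectRoot i s) with e | e <;>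
        rcases Rel.eta_cases hD (π ⟨i, hi⟩) (D.permRoot π (D.reflectRoot i s)) with e' | e' <;> simp [η, η', e, e']
    · have e : niG hD F i * xe hD (D.reflectRoot i s) (η * t) * (niG hD F i)⁻¹ = xe hD s t := Subtype.ext (by
        simp only [Subgroup.coe_mul, Subgroup.coe_inv, xe_val, ni_conj hD hi hw, Rel.reflect_invol hD hi hs]
        rw [← mul_assoc, Rel.etaF_sq hD, one_mul])
      rw [← e, map_mul, map_mul, map_inv, h, hnn ⟨i, hi⟩]
      refine Subtype.ext ?_
      simp only [Subgroup.coe_mul, Subgroup.coe_inv, xe_val]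
      rw [ni_conj hD (π ⟨i, hi⟩).2 hstep.2, hstep.1]
      congr 1
      simp only [η', η]
      ring

end CfsgLib.Chev.Aut
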